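import Cfsg.Agent.Lib.ChevOdd.FastCheck
import Cfsg.Agent.Lib.ChevOrder.Cert.E8
import Cfsg.Agent.Lib.ChevBN.FastData

/-! Packed tables for the involutions of the Chevalley group of type E8 over a field of odd order. -/

set_option autoImplicit false
set_option maxRecDepth 100000

namespace Cfsg.Agent.Lib.ChevOdd.Data.E8

open Cfsg.Lie Cfsg.Agent.Lib.ChevOdd.OddCert Cfsg.Agent.Lib.ChevOrder.Chain Cfsg.Agent.Lib.ChevOrder.Level
open Cfsg.Agent.Lib.ChevOdd.CentCard Cfsg.Agent.Lib.ChevOdd.Invol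

/-- The packed tables. -/
abbrev fT := Cfsg.Agent.Lib.ChevBN.FastData.tabE8

theorem fOk : FastOk fT chevE8 := ⟨Cfsg.Agent.Lib.ChevBN.FastData.hC_E8, Cfsg.Agent.Lib.ChevBN.FastData.hR_E8,
  Cfsg.Agent.Lib.ChevBN.FastData.hW_E8⟩

theorem hTbl : Cfsg.Agent.Lib.ChevBN.Table.Tbl chevE8 := Cfsg.Agent.Lib.ChevBN.FastData.tbl_chevE8

end Cfsg.Agent.Lib.ChevOdd.Data.E8
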