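import Cfsg.Agent.Lib.ChevOdd.Final
import Cfsg.Agent.Lib.ChevOrder.Cert.F4
import Cfsg.Agent.Lib.ChevBN.FastData
import Cfsg.Agent.Lib.ChevBN.FixCart
import Cfsg.Agent.Lib.ChevBN.ParabTab
import Cfsg.Agent.Lib.Chevalley.AllEta

/-! Tables for the involutions of the Chevalley group of type F4 over a field of odd order. -/

set_option autoImplicit false
set_option maxRecDepth 100000

namespace Cfsg.Agent.Lib.ChevOdd.Data.F4

open Cfsg.Lie Cfsg.Agent.Lib.ChevOdd.OddCert Cfsg.Agent.Lib.ChevOrder.Chain Cfsg.Agent.Lib.ChevOrder.Level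
open Cfsg.Agent.Lib.ChevOdd.CentCard Cfsg.Agent.Lib.ChevOdd.Invol

/-- The generators for the representative 1. -/
def gensA : List Gen := [([], 3), ([], 2), ([1], 2), ([], 0)]

/-- A level. -/
def levA0 : List (List ℤ × ℕ) := [
  ([Int.ofNat 0, Int.negSucc 0, Int.ofNat 1, Int.ofNat 0], 0),
  ([Int.ofNat 0, Int.ofNat 1, Int.negSucc 0, Int.ofNat 1], 1),
  ([Int.ofNat 0, Int.ofNat 1, Int.ofNat 0, Int.negSucc 0], 2),
  ([Int.ofNat 2, Int.negSucc 0, Int.ofNat 0, Int.ofNat 0], 3),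
  ([Int.negSucc 1, Int.ofNat 1, Int.ofNat 0, Int.ofNat 0], 4),
  ([Int.ofNat 0, Int.negSucc 0, Int.ofNat 0, Int.ofNat 1], 5),
  ([Int.ofNat 0, Int.negSucc 0, Int.ofNat 1, Int.negSucc 0], 6),
  ([Int.ofNat 0, Int.ofNat 1, Int.negSucc 0, Int.ofNat 0], 7)]

/-- A level. -/
def levA1 : List (List ℤ × ℕ) := [
  ([Int.ofNat 0, Int.ofNat 0, Int.ofNat 0, Int.ofNat 1], 0),
  ([Int.ofNat 0, Int.ofNat 0, Int.ofNat 1, Int.negSucc 0], 1),
  ([Int.ofNat 2, Int.negSucc 1, Int.ofNat 1, Int.ofNat 0], 2),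
  ([Int.negSucc 1, Int.ofNat 0, Int.ofNat 1, Int.ofNat 0], 3),
  ([Int.ofNat 0, Int.negSucc 1, Int.ofNat 1, Int.ofNat 1], 4),
  ([Int.ofNat 0, Int.negSucc 1, Int.ofNat 2, Int.negSucc 0], 5)]

/-- A level. -/
def levA2 : List (List ℤ × ℕ) := [
  ([Int.ofNat 0, Int.ofNat 1, Int.ofNat 0, Int.ofNat 0], 0),
  ([Int.ofNat 2, Int.negSucc 0, Int.ofNat 0, Int.ofNat 1], 1),
  ([Int.negSucc 1, Int.ofNat 1, Int.ofNat 0, Int.ofNat 1], 2),
  ([Int.ofNat 0, Int.negSucc 0, Int.ofNat 0, Int.ofNat 2], 3)]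

/-- A level. -/
def levA3 : List (List ℤ × ℕ) := [
  ([Int.ofNat 1, Int.ofNat 0, Int.ofNat 0, Int.ofNat 0], 0),
  ([Int.negSucc 0, Int.ofNat 1, Int.ofNat 0, Int.ofNat 0], 1)]

/-- The chain. -/
def chainA : List Lev1 := [(1, [Int.ofNat 0, Int.negSucc 0, Int.ofNat 1, Int.ofNat 0], levA0), (0, [Int.ofNat 0, Int.ofNat 0, Int.ofNat 0, Int.ofNat 1], levA1), (2, [Int.ofNat 0, Int.ofNat 1, Int.ofNat 0, Int.ofNat 0], levA2), (3, [Int.ofNat 1, Int.ofNat 0, Int.ofNat 0, Int.ofNat 0], levA3)]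

/-- The orbit. -/
def wordsA : List (List ℕ) := [[], [1, 0], [1]]

set_option maxHeartbeats 0 in
theorem genA : GenCert chevF4 1 gensA :=
  ⟨by decide +kernel, by decide +kernel, by decide +kernel, by decide +kernel⟩

set_option maxHeartbeats 0 in
theorem chkA : checkChain1 chevF4 1 gensA chainA = true := by decide +kernel

set_option maxHeartbeats 0 in
theorem hallA : ∀ i < gensA.length, i ∈ chainA.map Prod.fst := by decide +kernel

set_option maxHeartbeats 0 in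
theorem orbA : OrbCert chevF4 1 wordsA := ⟨by decide +kernel, by decide +kernel, by decide +kernel⟩

set_option maxHeartbeats 0 in
theorem polyA : chainPoly (strip chainA) = degPoly [2, 4, 6, 8] := by decide +kernel

set_option maxHeartbeats 0 in
theorem numA : chainSum 1 Cfsg.Agent.Lib.ChevOrder.Cert.F4.chain = chainSum 1 (strip chainA) * wordsA.length := by
  decide +kernel

set_option maxHeartbeats 0 in
theorem repA : RepCert chevF4 Cfsg.Agent.Lib.ChevOrder.Cert.F4.chain 1 [2, 4, 6, 8] :=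
  ⟨gensA, chainA, wordsA, genA, chkA, hallA, orbA, by decide +kernel, numA, polyA⟩

set_option maxHeartbeats 0 in
theorem posLenA : (posOf chevF4 1).length = 16 := by decide +kernel

/-- The generators for the representative 4. -/
def gensB : List Gen := [([], 2), ([3, 2], 1), ([1], 2), ([], 0)]

/-- A level. -/
def levB0 : List (List ℤ × ℕ) := [
  ([Int.ofNat 0, Int.negSucc 1, Int.ofNat 2, Int.negSucc 0], 0),
  ([Int.ofNat 0, Int.ofNat 2, Int.negSucc 1, Int.ofNat 1], 1)]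

/-- A level. -/
def levB1 : List (List ℤ × ℕ) := [
  ([Int.ofNat 0, Int.ofNat 0, Int.ofNat 0, Int.ofNat 1], 0),
  ([Int.ofNat 2, Int.ofNat 0, Int.ofNat 0, Int.negSucc 0], 1),
  ([Int.negSucc 1, Int.ofNat 2, Int.ofNat 0, Int.negSucc 0], 2),
  ([Int.ofNat 2, Int.negSucc 1, Int.ofNat 0, Int.ofNat 1], 3),
  ([Int.negSucc 1, Int.ofNat 0, Int.ofNat 0, Int.ofNat 1], 4),
  ([Int.ofNat 0, Int.ofNat 0, Int.ofNat 0, Int.negSucc 0], 5)]

/-- A level. -/
def levB2 : List (List ℤ × ℕ) := [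
  ([Int.ofNat 0, Int.ofNat 2, Int.ofNat 0, Int.negSucc 0], 0),
  ([Int.ofNat 4, Int.negSucc 1, Int.ofNat 0, Int.ofNat 1], 1),
  ([Int.negSucc 3, Int.ofNat 2, Int.ofNat 0, Int.ofNat 1], 2),
  ([Int.ofNat 0, Int.negSucc 1, Int.ofNat 0, Int.ofNat 3], 3)]

/-- A level. -/
def levB3 : List (List ℤ × ℕ) := [
  ([Int.ofNat 1, Int.ofNat 0, Int.ofNat 0, Int.ofNat 0], 0),
  ([Int.negSucc 0, Int.ofNat 1, Int.ofNat 0, Int.ofNat 0], 1)]

/-- The chain. -/
def chainB : List Lev1 := [(0, [Int.ofNat 0, Int.negSucc 1, Int.ofNat 2, Int.negSucc 0], levB0), (1, [Int.ofNat 0, Int.ofNat 0, Int.ofNat 0, Int.ofNat 1], levB1), (2, [Int.ofNat 0, Int.ofNat 2, Int.ofNat 0, Int.negSucc 0], levB2), (3, [Int.ofNat 1, Int.ofNat 0, Int.ofNat 0, Int.ofNat 0], levB3)]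

/-- The orbit. -/
def wordsB : List (List ℕ) := [[], [1, 0, 3, 2, 1, 2, 3], [1], [1, 0], [3, 2], [1, 0, 3, 2, 1], [1, 3, 2], [1, 0, 3, 2], [3], [1, 0, 3, 2, 1, 2], [1, 3], [1, 0, 3]]

set_option maxHeartbeats 0 in
theorem genB : GenCert chevF4 4 gensB :=
  ⟨by decide +kernel, by decide +kernel, by decide +kernel, by decide +kernel⟩

set_option maxHeartbeats 0 in
theorem chkB : checkChain1 chevF4 4 gensB chainB = true := by decide +kernel

set_option maxHeartbeats 0 in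
theorem hallB : ∀ i < gensB.length, i ∈ chainB.map Prod.fst := by decide +kernel

set_option maxHeartbeats 0 in
theorem orbB : OrbCert chevF4 4 wordsB := ⟨by decide +kernel, by decide +kernel, by decide +kernel⟩

set_option maxHeartbeats 0 in
theorem polyB : chainPoly (strip chainB) = degPoly [2, 2, 4, 6] := by decide +kernel

set_option maxHeartbeats 0 in
theorem numB : chainSum 1 Cfsg.Agent.Lib.ChevOrder.Cert.F4.chain = chainSum 1 (strip chainB) * wordsB.length := by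
  decide +kernel

set_option maxHeartbeats 0 in
theorem repB : RepCert chevF4 Cfsg.Agent.Lib.ChevOrder.Cert.F4.chain 4 [2, 2, 4, 6] :=
  ⟨gensB, chainB, wordsB, genB, chkB, hallB, orbB, by decide +kernel, numB, polyB⟩

set_option maxHeartbeats 0 in
theorem posLenB : (posOf chevF4 4).length = 10 := by decide +kernel

/-- Witnesses for the cover. -/
def wit : List (ℕ × List ℕ) := [(0, []), (1, []), (1, [1, 0]), (1, [1]), (4, []), (4, [1, 0, 3, 2, 1, 2, 3]), (4, [1]), (4, [1, 0]), (4, [3, 2]), (4, [1, 0, 3, 2, 1]), (4, [1, 3, 2]), (4, [1, 0, 3, 2]), (4, [3]), (4, [1, 0, 3, 2, 1, 2]), (4, [1, 3]), (4, [1, 0, 3])]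

set_option maxHeartbeats 0 in
theorem commLin : CommLin chevF4 :=
  commLin_of Cfsg.Agent.Lib.ChevBN.ParabTab.levF4.hpos (by decide +kernel)

set_option maxHeartbeats 0 in
theorem oddTab : OddTab chevF4 := ⟨by decide +kernel, by decide +kernel⟩

/-- The representatives with their degrees. -/
def reps : List (ℕ × List ℕ) := [(1, [2, 4, 6, 8]), (4, [2, 2, 4, 6])]

set_option maxHeartbeats 0 in
theorem cover : ∀ e < 2 ^ chevF4.rank, e = 0 ∨ ∃ r ∈ reps, ∃ l : List ℕ, (∀ i ∈ l, i < chevF4.rank) ∧ actW chevF4 r.1 l = e :=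
  cover_of (wit := wit) (by decide +kernel)

/-- The signs. -/
noncomputable abbrev eta : ℕ → ℕ → ℤ := Cfsg.Agent.Lib.Chevalley.SysOf.etaOf Cfsg.Agent.Lib.Chevalley.Tbl.F4.wT

set_option maxHeartbeats 0 in
theorem data : OddData chevF4 eta Cfsg.Agent.Lib.ChevOrder.Cert.F4.chain [2, 6, 8, 12] reps where
  hT := Cfsg.Agent.Lib.ChevBN.FastData.tbl_chevF4
  hC := commLin
  hO := oddTab
  hCI := Cfsg.Agent.Lib.ChevBN.FixCart.cartanInv_F4
  hη := fun i hi => Cfsg.Agent.Lib.Chevalley.NForm.eta_simple_of_check _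
    Cfsg.Agent.Lib.Chevalley.Tbl.F4.nform_check hi
  hfull := Cfsg.Agent.Lib.ChevOrder.Cert.F4.check
  hfall := Cfsg.Agent.Lib.ChevOrder.Cert.F4.all_mem
  hfpoly := Cfsg.Agent.Lib.ChevOrder.Cert.F4.poly
  hfne := by decide +kernel
  hreps := by
    intro r hr
    simp only [reps, List.mem_cons, List.not_mem_nil, or_false] at hr
    rcases hr with rfl | rfl
    · exact ⟨repA, by decide +kernel⟩
    · exact ⟨repB, by decide +kernel⟩
  cover := cover

end Cfsg.Agent.Lib.ChevOdd.Data.F4
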