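import Cfsg.Agent.Lib.ChevOdd.Final
import Cfsg.Agent.Lib.ChevOrder.Cert.G2
import Cfsg.Agent.Lib.ChevBN.FastData
import Cfsg.Agent.Lib.ChevBN.FixCart
import Cfsg.Agent.Lib.ChevBN.ParabTab
import Cfsg.Agent.Lib.Chevalley.AllEta

/-! Tables for the involutions of the Chevalley group of type G2 over a field of odd order. -/

set_option autoImplicit false
set_option maxRecDepth 100000

namespace Cfsg.Agent.Lib.ChevOdd.Data.G2

open Cfsg.Lie Cfsg.Agent.Lib.ChevOdd.OddCert Cfsg.Agent.Lib.ChevOrder.Chain Cfsg.Agent.Lib.ChevOrder.Level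
open Cfsg.Agent.Lib.ChevOdd.CentCard Cfsg.Agent.Lib.ChevOdd.Invol

/-- The generators for the representative 1. -/
def gensA : List Gen := [([], 0), ([1, 0], 1)]

/-- A level. -/
def levA0 : List (List ℤ × ℕ) := [
  ([Int.ofNat 2, Int.negSucc 0], 0),
  ([Int.negSucc 1, Int.ofNat 1], 1)]

/-- A level. -/
def levA1 : List (List ℤ × ℕ) := [
  ([Int.ofNat 0, Int.ofNat 1], 0),
  ([Int.ofNat 0, Int.negSucc 0], 1)]

/-- The chain. -/
def chainA : List Lev1 := [(0, [Int.ofNat 2, Int.negSucc 0], levA0), (1, [Int.ofNat 0, Int.ofNat 1], levA1)]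

/-- The orbit. -/
def wordsA : List (List ℕ) := [[], [1, 0], [1]]

set_option maxHeartbeats 0 in
theorem genA : GenCert chevG2 1 gensA :=
  ⟨by decide +kernel, by decide +kernel, by decide +kernel, by decide +kernel⟩

set_option maxHeartbeats 0 in
theorem chkA : checkChain1 chevG2 1 gensA chainA = true := by decide +kernel

set_option maxHeartbeats 0 in
theorem hallA : ∀ i < gensA.length, i ∈ chainA.map Prod.fst := by decide +kernel

set_option maxHeartbeats 0 in
theorem orbA : OrbCert chevG2 1 wordsA := ⟨by decide +kernel, by decide +kernel, by decide +kernel⟩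

set_option maxHeartbeats 0 in
theorem polyA : chainPoly (strip chainA) = degPoly [2, 2] := by decide +kernel

set_option maxHeartbeats 0 in
theorem numA : chainSum 1 Cfsg.Agent.Lib.ChevOrder.Cert.G2.chain = chainSum 1 (strip chainA) * wordsA.length := by
  decide +kernel

set_option maxHeartbeats 0 in
theorem repA : RepCert chevG2 Cfsg.Agent.Lib.ChevOrder.Cert.G2.chain 1 [2, 2] :=
  ⟨gensA, chainA, wordsA, genA, chkA, hallA, orbA, by decide +kernel, numA, polyA⟩

set_option maxHeartbeats 0 in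
theorem posLenA : (posOf chevG2 1).length = 2 := by decide +kernel

/-- Witnesses for the cover. -/
def wit : List (ℕ × List ℕ) := [(0, []), (1, []), (1, [1, 0]), (1, [1])]

set_option maxHeartbeats 0 in
theorem commLin : CommLin chevG2 :=
  commLin_of Cfsg.Agent.Lib.ChevBN.ParabTab.levG2.hpos (by decide +kernel)

set_option maxHeartbeats 0 in
theorem oddTab : OddTab chevG2 := ⟨by decide +kernel, by decide +kernel⟩

/-- The representatives with their degrees. -/
def reps : List (ℕ × List ℕ) := [(1, [2, 2])]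

set_option maxHeartbeats 0 in
theorem cover : ∀ e < 2 ^ chevG2.rank, e = 0 ∨ ∃ r ∈ reps, ∃ l : List ℕ, (∀ i ∈ l, i < chevG2.rank) ∧ actW chevG2 r.1 l = e :=
  cover_of (wit := wit) (by decide +kernel)

/-- The signs. -/
noncomputable abbrev eta : ℕ → ℕ → ℤ := Cfsg.Agent.Lib.Chevalley.SysOf.etaOf Cfsg.Agent.Lib.Chevalley.Tbl.G2.wT

set_option maxHeartbeats 0 in
theorem data : OddData chevG2 eta Cfsg.Agent.Lib.ChevOrder.Cert.G2.chain [2, 6] reps where
  hT := Cfsg.Agent.Lib.ChevBN.FastData.tbl_chevG2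
  hC := commLin
  hO := oddTab
  hCI := Cfsg.Agent.Lib.ChevBN.FixCart.cartanInv_G2
  hη := fun i hi => Cfsg.Agent.Lib.Chevalley.NForm.eta_simple_of_check _
    Cfsg.Agent.Lib.Chevalley.Tbl.G2.nform_check hi
  hfull := Cfsg.Agent.Lib.ChevOrder.Cert.G2.check
  hfall := Cfsg.Agent.Lib.ChevOrder.Cert.G2.all_mem
  hfpoly := Cfsg.Agent.Lib.ChevOrder.Cert.G2.poly
  hfne := by decide +kernel
  hreps := by
    intro r hr
    simp only [reps, List.mem_cons, List.not_mem_nil, or_false] at hr
    rcases hr with rfl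
    · exact ⟨repA, by decide +kernel⟩
  cover := cover

end Cfsg.Agent.Lib.ChevOdd.Data.G2
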